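import Cfsg.Agent.S2544
import Cfsg.Agent.Lib.ClassicalForms.Exceptional.FourPlus
import Cfsg.Agent.Lib.CharTheory.Inflation

/-!
The Steinberg character of `PΩ⁺₄(2)`.
-/

set_option autoImplicit false
set_option linter.unusedSectionVars false
set_option linter.style.haveILetI false

namespace CfsgLib.Generators.Steinberg

open CfsgLib.ClassicalForms Matrix
open scoped MatrixGroups commutatorElement

variable {F : Type*} [Field F] [Finite F]

theorem eq_zero_or_one_of_card_two (h : Nat.card F = 2) (x : F) : x = 0 ∨ x = 1 := by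
  haveI := Fintype.ofFinite F
  classical
  by_contra hc
  push Not at hc
  have h3 : ({0, 1, x} : Finset F).card = 3 := by
    rw [Finset.card_insert_of_notMem (by simp [Ne.symm hc.1]), Finset.card_insert_of_notMem (by simp [Ne.symm hc.2]),
      Finset.card_singleton]
  have := Finset.card_le_univ ({0, 1, x} : Finset F)
  rw [h3, ← Nat.card_eq_fintype_card, h] at this
  omega

theorem two_eq_zero_of_card_two (h : Nat.card F = 2) : (2 : F) = 0 := by
  rcases eq_zero_or_one_of_card_two h (2 : F) with e | e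
  · exact e
  · exact absurd (by linear_combination e : (1 : F) = 0) one_ne_zero

/-- The permutation of the vectors of value one. -/
noncomputable def onePerm : orth (qPlus 2 F) →* Equiv.Perm {v : Fin 2 ⊕ Fin 2 → F // qPlus 2 F v = 1} where
  toFun g := Equiv.Perm.subtypePerm ((g : (Fin 2 ⊕ Fin 2 → F) ≃ₗ[F] (Fin 2 ⊕ Fin 2 → F)).toEquiv) fun v => by
    rw [LinearEquiv.coe_toEquiv, orth_apply]
  map_one' := Equiv.ext fun v => Subtype.ext rfl
  map_mul' g g' := Equiv.ext fun v => Subtype.ext rfl

theorem onePerm_apply (g : orth (qPlus 2 F)) (v : {v : Fin 2 ⊕ Fin 2 → F // qPlus 2 F v = 1}) :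
    (onePerm g v : Fin 2 ⊕ Fin 2 → F) = (g : (Fin 2 ⊕ Fin 2 → F) ≃ₗ[F] (Fin 2 ⊕ Fin 2 → F)) v.1 := rfl

theorem sign_of_free_involution {α : Type*} [Fintype α] [DecidableEq α] (σ : Equiv.Perm α) (h2 : σ * σ = 1)
    (hfree : ∀ x, σ x ≠ x) (hcard : Fintype.card α = 6) : Equiv.Perm.sign σ = -1 := by
  have hs : σ.support = Finset.univ := Finset.eq_univ_of_forall fun x => Equiv.Perm.mem_support.2 (hfree x)
  have hct : ∀ c ∈ σ.cycleType, c = 2 := fun c hc => by
    have h1 : σ ^ 2 = 1 := by rw [pow_two, h2]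
    have h3 := (Equiv.Perm.dvd_of_mem_cycleType hc).trans (orderOf_dvd_of_pow_eq_one h1)
    have h4 := Equiv.Perm.two_le_of_mem_cycleType hc
    exact le_antisymm (Nat.le_of_dvd two_pos h3) h4
  have hrep := Multiset.eq_replicate_of_mem hct
  have hsum : σ.cycleType.sum = 6 := by rw [Equiv.Perm.sum_cycleType, hs, Finset.card_univ, hcard]
  rw [hrep, Multiset.sum_replicate, smul_eq_mul] at hsum
  have hk : Multiset.card σ.cycleType = 3 := by omega
  rw [Equiv.Perm.sign_of_cycleType, Equiv.Perm.sum_cycleType, hs, Finset.card_univ, hcard, hk]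
  decide

theorem fourHom_injective (h : Nat.card F = 2) : Function.Injective (fourHom (F := F)) := by
  rw [injective_iff_map_eq_one]
  intro p hp
  obtain ⟨h1, h2⟩ := (mem_ker_fourHom p).1 hp
  rw [CfsgLib.SL2.center_eq_bot_of_two (two_eq_zero_of_card_two h), Subgroup.mem_bot] at h1
  exact Prod.ext h1 (h2.trans h1)

theorem index_range_fourHom (h : Nat.card F = 2) : (fourHom (F := F)).range.index = 2 := by
  have := finite_orth (qPlus 2 F)
  have hc := (fourHom (F := F)).range.card_mul_index
  have ho := card_orth_qPlus (F := F) 2 (by norm_num)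
  rw [h] at ho
  norm_num [Finset.prod_range_succ] at ho
  have ho' : Nat.card (orth (qPlus 2 F)) = 72 := by exact_mod_cast ho
  have hr : Nat.card (fourHom (F := F)).range = 36 := by
    rw [← Nat.card_congr (MonoidHom.ofInjective (fourHom_injective h)).toEquiv, Nat.card_prod,
      CfsgLib.SL2.card_SL, h]
    norm_num
  rw [hr, ho'] at hc
  omega

theorem commutator_le_range (h : Nat.card F = 2) :
    commutator (orth (qPlus 2 F)) ≤ (fourHom (F := F)).range := by
  rw [commutator_def, Subgroup.commutator_le]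
  intro x _ y _
  rw [commutatorElement_def]
  have hm := @Subgroup.mul_mem_iff_of_index_two _ _ _ (index_range_fourHom h)
  simp only [hm, inv_mem_iff]
  tauto

/-- The isometry exchanging the two factors. -/
theorem exists_swap_factors (h : Nat.card F = 2) : ∃ r : orth (qPlus 2 F),
    ∀ (i j : Fin 2) (hij : i ≠ j) (c : F),
      r * fourHom (SpecialLinearGroup.transvection hij c, 1) =
        fourHom (1, SpecialLinearGroup.transvection hij.symm c) * r := by
  have h2 := two_eq_zero_of_card_two h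
  have hQ : qPlus 2 F (Pi.single (.inl 0) 1 + Pi.single (.inr 0) 1) ≠ 0 := by
    simp [qPlus_apply, Cfsg.quadFormPlus, Fin.sum_univ_two]
  refine ⟨refl (qPlus 2 F) _ hQ, fun i j hij c => orth_ext fun v => ?_⟩
  have hneg : ∀ x : F, -x = x := fun x => by linear_combination (-x) * h2
  rw [orth_mul_apply, orth_mul_apply, fourHom_apply, fourHom_apply, refl_apply, refl_apply]
  fin_cases i <;> fin_cases j <;> first
    | exact absurd rfl hij
    | (funext k; rcases k with k | k <;> fin_cases k <;>
        simp [fourMap_apply, toM, ofM, Matrix.mul_apply, Fin.sum_univ_two, SpecialLinearGroup.transvection,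
          Matrix.transvection, Matrix.single_apply, qPlus_apply, Cfsg.quadFormPlus, QuadraticMap.polar,
          Pi.single_apply] <;>
        (first | ring1 | (simp only [sub_eq_add_neg, hneg]; ring1) | (rw [← sub_eq_zero]; ring_nf; simp [h2]; done)))

theorem transvection_sq (h : Nat.card F = 2) {i j : Fin 2} (hij : i ≠ j) (c : F) :
    (SpecialLinearGroup.transvection hij c : SL(2, F))⁻¹ = SpecialLinearGroup.transvection hij c := by
  refine inv_eq_of_mul_eq_one_right ?_
  rw [← pow_two, transvection_pow]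
  push_cast
  rw [two_eq_zero_of_card_two h, zero_mul]
  exact Subtype.ext (by simp [SpecialLinearGroup.transvection, Matrix.transvection])

/-- The Steinberg character in the exceptional case. -/
theorem exists_steinberg_plus_two (h : Nat.card F = 2) (p : ℕ) [Fact p.Prime] [CharP F p] :
    ∃ χ : Cfsg.POmega F (Cfsg.quadFormPlus 2 F) → ℂ,
      Cfsg.IsIrrCharacter (Cfsg.POmega F (Cfsg.quadFormPlus 2 F)) χ ∧
      ∀ S : Sylow p (Cfsg.POmega F (Cfsg.quadFormPlus 2 F)), χ 1 = Nat.card S ∧
        ∀ x : Cfsg.POmega F (Cfsg.quadFormPlus 2 F), x ∈ S → x ≠ 1 → χ x = 0 := by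
  classical
  haveI := Fintype.ofFinite F
  have := finite_orth (qPlus 2 F)
  have hp : p = 2 := by
    have h0 : ((2 : ℕ) : F) = 0 := by exact_mod_cast two_eq_zero_of_card_two h
    exact (Nat.prime_dvd_prime_iff_eq Fact.out Nat.prime_two).1 ((CharP.cast_eq_zero_iff F p 2).1 h0)
  subst hp
  let e := isoMat (qPlus 2 F) (qPlus_apply 2)
  let j : Cfsg.Omega F (Cfsg.quadFormPlus 2 F) →* orth (qPlus 2 F) :=
    e.toMonoidHom.comp (Cfsg.Omega F (Cfsg.quadFormPlus 2 F)).subtype
  have hj : Function.Injective j := e.injective.comp (Subgroup.subtype_injective _)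
  haveI : Finite (Cfsg.Omega F (Cfsg.quadFormPlus 2 F)) := Finite.of_injective j hj
  have hjr : j.range = commutator (orth (qPlus 2 F)) := by
    rw [MonoidHom.range_comp, Subgroup.range_subtype, show Cfsg.Omega F (Cfsg.quadFormPlus 2 F) = commutator _ from rfl,
      commutator_def, Subgroup.map_commutator, commutator_def,
      Subgroup.map_top_of_surjective e.toMonoidHom e.surjective]
  have hinj := fourHom_injective h
  let φ := MonoidHom.ofInjective hinj
  have hmem : ∀ x, j x ∈ (fourHom (F := F)).range := fun x => commutator_le_range h (hjr ▸ ⟨x, rfl⟩)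
  let π : Cfsg.Omega F (Cfsg.quadFormPlus 2 F) →* SL(2, F) :=
    (MonoidHom.fst _ _).comp (φ.symm.toMonoidHom.comp (j.codRestrict _ hmem))
  have hπ : ∀ x a b, j x = fourHom (a, b) → π x = a := by
    intro x a b hx
    show (φ.symm ⟨j x, hmem x⟩).1 = a
    rw [show (⟨j x, hmem x⟩ : (fourHom (F := F)).range) = φ (a, b) from Subtype.ext hx, MulEquiv.symm_apply_apply]
  -- surjectivity
  have hsurj : Function.Surjective π := by
    rw [← MonoidHom.range_eq_top]
    refine eq_top_iff.2 fun g _ => ?_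
    refine CfsgLib.ClassicalLinear.transvection_induction (P := fun x => x ∈ π.range) (one_mem _) ?_
      (fun x y hx hy => mul_mem hx hy) g
    intro i k hik c
    obtain ⟨r, hr⟩ := exists_swap_factors h
    set t : SL(2, F) := SpecialLinearGroup.transvection hik c
    set t' : SL(2, F) := SpecialLinearGroup.transvection hik.symm c
    have hc : ⁅r, fourHom (t, 1)⁆ = fourHom (t, t') := by
      rw [commutatorElement_def, hr, mul_inv_cancel_right, ← map_inv, ← map_mul]
      congr 1
      exact Prod.ext (by simp [t, transvection_sq h]) (by simp [t'])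
    obtain ⟨x, hx⟩ : fourHom (t, t') ∈ j.range := by
      rw [hjr, ← hc, commutator_def]
      exact Subgroup.commutator_mem_commutator (Subgroup.mem_top _) (Subgroup.mem_top _)
    exact ⟨x, hπ x t t' hx⟩
  -- the kernel has odd order
  have hker : ¬ 2 ∣ Nat.card π.ker := by
    intro hd
    obtain ⟨⟨x, hx⟩, hxo⟩ := exists_prime_orderOf_dvd_card' 2 hd
    have hx1 : x ≠ 1 := fun e => by
      subst e
      rw [show (⟨1, hx⟩ : π.ker) = 1 from rfl, orderOf_one] at hxo
      omega
    have hx2 : x * x = 1 := by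
      have := pow_orderOf_eq_one (⟨x, hx⟩ : π.ker)
      rw [hxo, pow_two] at this
      exact congrArg Subtype.val this
    obtain ⟨⟨a, s⟩, has⟩ := hmem x
    obtain rfl : a = 1 := (hπ x a s has.symm).symm.trans (MonoidHom.mem_ker.1 hx)
    have hs1 : s ≠ 1 := fun e => by
      subst e
      exact hx1 (hj (has.symm.trans ((map_one fourHom).trans (map_one j).symm)))
    have hs2 : s * s = 1 := by
      have h' : fourHom (((1 : SL(2, F)), s) * (1, s)) = fourHom 1 := by
        rw [map_mul, has, ← map_mul, hx2, map_one, map_one]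
      exact congrArg Prod.snd (hinj h')
    haveI : Fintype {v : Fin 2 ⊕ Fin 2 → F // qPlus 2 F v = 1} := Fintype.ofFinite _
    have hsign : Equiv.Perm.sign (onePerm (j x)) = 1 := by
      have hle : commutator (orth (qPlus 2 F)) ≤ (Equiv.Perm.sign.comp onePerm).ker :=
        Abelianization.commutator_subset_ker _
      exact hle (hjr ▸ ⟨x, rfl⟩)
    rw [← has] at hsign
    have hS : Fintype.card {v : Fin 2 ⊕ Fin 2 → F // qPlus 2 F v = 1} = 6 := by
      let eS : {v : Fin 2 ⊕ Fin 2 → F // qPlus 2 F v = 1} ≃ SL(2, F) :=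
        { toFun := fun v => ⟨toM v.1, (qPlus_toM v.1).symm.trans v.2⟩
          invFun := fun X => ⟨ofM X.1, by rw [qPlus_toM, toM_ofM]; exact X.2⟩
          left_inv := fun v => Subtype.ext (ofM_toM v.1)
          right_inv := fun X => Subtype.ext (toM_ofM X.1) }
      rw [← Nat.card_eq_fintype_card, Nat.card_congr eS, CfsgLib.SL2.card_SL, h]
      norm_num
    have hfree : ∀ v, onePerm (fourHom (1, s)) v ≠ v := by
      intro v hv
      have h1 := congrArg (fun w : {v : Fin 2 ⊕ Fin 2 → F // qPlus 2 F v = 1} => toM w.1) hv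
      simp only [onePerm_apply, fourHom_apply, fourMap_apply, toM_ofM] at h1
      change (1 : Matrix (Fin 2) (Fin 2) F) * toM v.1 * (s : Matrix (Fin 2) (Fin 2) F)ᵀ = toM v.1 at h1
      rw [one_mul] at h1
      let M : SL(2, F) := ⟨toM v.1, (qPlus_toM v.1).symm.trans v.2⟩
      have h2 : (s : Matrix (Fin 2) (Fin 2) F)ᵀ = 1 := by
        have h3 := congrArg (fun N => ((M⁻¹ : SL(2, F)) : Matrix (Fin 2) (Fin 2) F) * N) h1
        simp only [← Matrix.mul_assoc] at h3
        have hinv : ((M⁻¹ : SL(2, F)) : Matrix (Fin 2) (Fin 2) F) * toM v.1 = 1 := congrArg Subtype.val (inv_mul_cancel M)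
        rw [hinv, one_mul] at h3
        exact h3
      exact hs1 (Subtype.ext (by simpa using congrArg Matrix.transpose h2))
    rw [sign_of_free_involution _ (by
      rw [← map_mul, ← map_mul, Prod.mk_mul_mk, one_mul, hs2, show ((1 : SL(2, F)), (1 : SL(2, F))) = 1 from rfl,
        map_one, map_one]) hfree hS] at hsign
    exact absurd hsign (by decide)
  -- descend
  let Z := Subgroup.center (Cfsg.Omega F (Cfsg.quadFormPlus 2 F))
  let π₂ : Cfsg.Omega F (Cfsg.quadFormPlus 2 F) →* Matrix.ProjectiveSpecialLinearGroup (Fin 2) F :=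
    (QuotientGroup.mk' (Subgroup.center (SL(2, F)))).comp π
  have hZ : Z ≤ π₂.ker := fun z hz => (QuotientGroup.eq_one_iff (π z)).2 (Subgroup.mem_center_iff.2 fun g => by
    obtain ⟨y, rfl⟩ := hsurj g
    rw [← map_mul, ← map_mul, Subgroup.mem_center_iff.1 hz y])
  let ψ : Cfsg.POmega F (Cfsg.quadFormPlus 2 F) →* Matrix.ProjectiveSpecialLinearGroup (Fin 2) F :=
    QuotientGroup.lift Z π₂ hZ
  have hψ : Function.Surjective ψ := fun q => by
    obtain ⟨g, rfl⟩ := QuotientGroup.mk'_surjective _ q
    obtain ⟨y, rfl⟩ := hsurj g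
    exact ⟨(y : Cfsg.POmega F (Cfsg.quadFormPlus 2 F)), rfl⟩
  obtain ⟨χ, hχ, hχP⟩ := Cfsg.Agent.S2544.result (F := F) 2 2 le_rfl
  refine ⟨χ ∘ ψ, CfsgLib.CharTheory.isIrrCharacter_comp hχ hψ, fun S => ?_⟩
  have htriv : ∀ x ∈ S, ψ x = 1 → x = 1 := by
    intro x hxS hx
    obtain ⟨y, rfl⟩ := QuotientGroup.mk'_surjective _ x
    have hy : y ∈ π.ker := by
      have h1 : π y ∈ Subgroup.center SL(2, F) := (QuotientGroup.eq_one_iff _).1 hx
      rwa [CfsgLib.SL2.center_eq_bot_of_two (two_eq_zero_of_card_two h), Subgroup.mem_bot] at h1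
    obtain ⟨k, hk⟩ := S.2 ⟨_, hxS⟩
    have hk' : (QuotientGroup.mk' Z y) ^ (2 ^ k) = 1 := congrArg Subtype.val hk
    have hd : (QuotientGroup.mk' Z y) ^ Nat.card π.ker = 1 := by
      have := congrArg Subtype.val (pow_card_eq_one' (x := (⟨y, hy⟩ : π.ker)))
      rw [← map_pow, show y ^ Nat.card π.ker = 1 from this, map_one]
    have hco : Nat.Coprime (2 ^ k) (Nat.card π.ker) :=
      Nat.Coprime.pow_left k (Nat.prime_two.coprime_iff_not_dvd.2 hker)
    exact orderOf_eq_one_iff.1 (Nat.eq_one_of_dvd_coprimes hco (orderOf_dvd_of_pow_eq_one hk')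
      (orderOf_dvd_of_pow_eq_one hd))
  let S' : Sylow 2 (Matrix.ProjectiveSpecialLinearGroup (Fin 2) F) := S.mapSurjective hψ
  obtain ⟨h1, h0⟩ := hχP S'
  have hinjS : Function.Injective (fun x : S => (⟨ψ x.1, ⟨x.1, x.2, rfl⟩⟩ : S')) := fun x y e => by
    refine Subtype.ext (inv_mul_eq_one.1 (htriv _ (mul_mem (inv_mem x.2) y.2) ?_))
    rw [map_mul, map_inv, show ψ x.1 = ψ y.1 from congrArg Subtype.val e, inv_mul_cancel]
  have hcard : Nat.card S = Nat.card S' := Nat.card_congr (Equiv.ofBijective _ ⟨hinjS, fun ⟨q, hq⟩ => by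
    obtain ⟨x, hx, rfl⟩ := hq
    exact ⟨⟨x, hx⟩, rfl⟩⟩)
  refine ⟨?_, fun x hx hx1 => ?_⟩
  · rw [Function.comp_apply, map_one, h1, hcard]
  · exact h0 _ ⟨x, hx, rfl⟩ fun e => hx1 (htriv x hx e)

end CfsgLib.Generators.Steinberg
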